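import Mathlib
import Cfsg.Agent.Lib.MultC.ModExt2
import Cfsg.Agent.Lib.Fischer.Base

/-!
Vectors over `ZMod 3` as pairs of bit masks; the sign twisted permutation module; submodels of permutation models.
-/

set_option autoImplicit false

namespace CfsgLib.MultC.F3

open CfsgLib.Comput CfsgLib.MultC CfsgLib.MultC.ModExt CfsgLib.Fischer Multiplicative SemidirectProduct

/-- a bit -/
def bt (b : Bool) : ZMod 3 := if b then 1 else 0

/-- the entry of a packed vector -/
def tri (n x i : ℕ) : ZMod 3 := bt (x.testBit i) - bt (x.testBit (n + i))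

/-- the lower half -/
noncomputable def lo (n x : ℕ) : ℕ := Nat.land x (Nat.pred (Nat.pow 2 n))

/-- joining two halves -/
noncomputable def jn (n a b : ℕ) : ℕ := Nat.lor (lo n a) (Nat.shiftLeft b n)

theorem testBit_lo (n x i : ℕ) : (lo n x).testBit i = (x.testBit i && decide (i < n)) := by
  change (x &&& (2 ^ n - 1)).testBit i = _
  rw [Nat.testBit_and, Nat.testBit_two_pow_sub_one]

theorem tri_jn {n i : ℕ} (hi : i < n) (a b : ℕ) : tri n (jn n a b) i = bt (a.testBit i) - bt (b.testBit i) := by
  change tri n (lo n a ||| b <<< n) i = _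
  simp [tri, Nat.testBit_or, testBit_lo, Nat.testBit_shiftLeft, hi, not_le.2 hi]

/-- addition of packed vectors -/
noncomputable def add3 (n x y : ℕ) : ℕ :=
  force (lo n x) fun a => force (Nat.shiftRight x n) fun b => force (lo n y) fun c =>
  force (Nat.shiftRight y n) fun d => force (Nat.xor a b) fun p => force (Nat.xor c d) fun q =>
  force (Nat.land a p) fun a' => force (Nat.land b p) fun b' => force (Nat.land c q) fun c' =>
  force (Nat.land d q) fun d' => force (Nat.xor (Nat.lor a' d') (Nat.lor b' c')) fun t =>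
    jn n (Nat.xor (Nat.lor b' d') t) (Nat.xor (Nat.lor a' c') t)

theorem tri_add3 {n i : ℕ} (hi : i < n) (x y : ℕ) : tri n (add3 n x y) i = tri n x i + tri n y i := by
  simp only [add3, force_eq]
  rw [tri_jn hi]
  simp only [Nat.xor_eq, Nat.lor_eq, Nat.land_eq, Nat.shiftRight_eq, Nat.testBit_xor, Nat.testBit_or,
    Nat.testBit_and, Nat.testBit_shiftRight, testBit_lo, hi, decide_true, Bool.and_true, tri]
  cases x.testBit i <;> cases x.testBit (n + i) <;> cases y.testBit i <;> cases y.testBit (n + i) <;> rfl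

/-- the first `r` letters act by a permutation and a sign change -/
noncomputable def step (n r : ℕ) (W : List Net) (m x : ℕ) : ℕ :=
  Bool.rec x (jn n (stepH W m (Nat.shiftRight x n)) (stepH W m (lo n x))) (Nat.ble (Nat.succ m) r)

variable {G : Type} [Group G] {n : ℕ}

/-- the twisted permutation module -/
def QF (_π : G →* Equiv.Perm (Fin n)) (_σ : G →* ℤˣ) : Type := Fin n → ZMod 3

/-- the sign module -/
def VF (_σ : G →* ℤˣ) : Type := ZMod 3

variable (π : G →* Equiv.Perm (Fin n)) (σ : G →* ℤˣ)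

instance : AddCommGroup (QF π σ) := inferInstanceAs (AddCommGroup (Fin n → ZMod 3))
instance : Finite (QF π σ) := inferInstanceAs (Finite (Fin n → ZMod 3))
instance : AddCommGroup (VF σ) := inferInstanceAs (AddCommGroup (ZMod 3))

/-- the element of the sign module -/
def VF.mk (a : ZMod 3) : VF σ := a

instance : DistribMulAction G (QF π σ) where
  smul g f := fun i => σ g • (f (π g⁻¹ i) : ZMod 3)
  one_smul f := funext fun i => by
    change σ 1 • (f (π 1⁻¹ i) : ZMod 3) = f i
    simp
  mul_smul g h f := funext fun i => by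
    change σ (g * h) • (f (π (g * h)⁻¹ i) : ZMod 3) = σ g • σ h • (f (π h⁻¹ (π g⁻¹ i)) : ZMod 3)
    rw [map_mul, mul_smul, mul_inv_rev, map_mul, Equiv.Perm.mul_apply]
  smul_zero g := funext fun _ => smul_zero (A := ZMod 3) (σ g)
  smul_add g f f' := funext fun _ => smul_add (A := ZMod 3) (σ g) _ _

instance : DistribMulAction G (VF σ) := DistribMulAction.compHom (ZMod 3) σ

/-- the constant functions -/
def cst : VF σ →+ QF π σ := AddMonoidHom.mk' (fun v _ => v) fun _ _ => rfl

theorem cst_smul (a : G) (v : VF σ) : cst π σ (a • v) = a • cst π σ v := rfl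

theorem cst_inj [NeZero n] : Function.Injective (cst π σ) := fun _ _ h => congrFun h (finPt n 0)

/-- decoding -/
def dec (x : ℕ) : QF π σ := fun i => tri n x i

theorem dec_zero : dec π σ 0 = 0 := funext fun i => by simp [dec, tri]; rfl

theorem dec_add3 (x y : ℕ) : dec π σ (add3 n x y) = dec π σ x + dec π σ y := funext fun i => tri_add3 i.2 x y

theorem dec_full : dec π σ (Nat.pred (Nat.pow 2 n)) = cst π σ (VF.mk σ 1) := funext fun i => by
  change tri n (2 ^ n - 1) i = 1
  simp [tri, bt]

variable {π σ}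

theorem dec_step [NeZero n] {W : List Net} (hW : allL (Net.ok n) W = true) {g : ℕ → G} {r : ℕ}
    (hπ : ∀ m, π (g m) = permG n W m) (hσ : ∀ m < r, σ (g m) = -1) (h1 : ∀ m, r ≤ m → g m = 1) (m x : ℕ) :
    dec π σ (step n r W m x) = g m • dec π σ x := by
  unfold step
  cases h : Nat.ble (Nat.succ m) r
  · rw [h1 m (by rw [← Bool.not_eq_true, Nat.ble_eq] at h; omega), one_smul]
  · funext i
    have hA := acts_permG hW m
    have h2 : π (g m)⁻¹ i = finPt n ((nth Net.nil W m).fn i) := by
      rw [map_inv, hπ, Equiv.Perm.inv_eq_iff_eq]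
      exact ((hA.2 i i.2).trans (finPt_coe i)).symm
    change tri n (jn n _ _) i = σ (g m) • tri n x (π (g m)⁻¹ i)
    rw [tri_jn i.2, h2, finPt_val (Net.fn_lt hA.1 i.2), hσ m (Nat.le_of_ble_eq_true h), stepH_eq, stepN, stepN,
      Net.testBit_app hA.1, Net.testBit_app hA.1, testBit_lo, decide_eq_true (Net.fn_lt hA.1 i.2), Bool.and_true,
      Nat.shiftRight_eq, Nat.testBit_shiftRight, tri]
    simp

/-- the value of words in the letters `(dec (S m), g m)` -/
theorem evL_SD' {Q : Type} [AddCommGroup Q] [DistribMulAction G Q] {g : ℕ → G} {dec : ℕ → Q} {add step : ℕ → ℕ → ℕ}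
    (h0 : dec 0 = 0) (hx : ∀ a b, dec (add a b) = dec a + dec b) (hs : ∀ m x, dec (step m x) = g m • dec x)
    (S : ℕ → ℕ) (l : List ℕ) : Comput.evL (fun m => (inl (ofAdd (dec (S m))) * inr (g m) : SD G Q)) l =
      inl (ofAdd (dec (actL (fun m T => add (S m) (step m T)) l 0))) * inr (Comput.evL g l) := by
  have := actL_rel (g := fun m => ((inl (ofAdd (dec (S m))) * inr (g m) : SD G Q), g m))
    (step := fun m T => add (S m) (step m T))
    (St := fun T (y : SD G Q × G) => y.1 = inl (ofAdd (dec T)) * inr y.2) (fun m T y h => by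
      have h' : y.1 = inl (ofAdd (dec T)) * inr y.2 := h
      show (inl (ofAdd (dec (S m))) * inr (g m) : SD G Q) * y.1 =
        inl (ofAdd (dec (add (S m) (step m T)))) * inr (g m * y.2)
      rw [hx, hs, h', ofAdd_add, map_mul, map_mul, mul_assoc, ← mul_assoc (inr (g m)), SD.conj, right_inr]
      simp only [mul_assoc]) l (x := 0) (a := 1) (by rw [h0]; simp)
  rw [mul_one] at this
  have a1 := map_evL (MonoidHom.fst (SD G Q) G)
    (fun m => ((inl (ofAdd (dec (S m))) * inr (g m) : SD G Q), g m)) l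
  have a2 := map_evL (MonoidHom.snd (SD G Q) G)
    (fun m => ((inl (ofAdd (dec (S m))) * inr (g m) : SD G Q), g m)) l
  simp only [MonoidHom.coe_fst, MonoidHom.coe_snd] at a1 a2
  rw [← a1, ← a2]
  exact this

/-- apply the letters of a list -/
noncomputable def appL (W : List Net) (l : List ℕ) (x : ℕ) : ℕ :=
  List.rec x (fun m _ ih => force ih fun y => stepH W m y) l

/-- the plane `b` of the check of a network on a subset -/
noncomputable def subOK (n n' : ℕ) (W : List Net) (R N : Net) (l : List ℕ) (b : ℕ) : Bool :=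
  Nat.beq (lo n' (R.app (appL W l (R.rev.app (col n b))))) (N.app (col n' b))

theorem acts_sub {G Ω : Type*} [Group G] [MulAction G Ω] {n n' k : ℕ} {pt : ℕ → Ω} {W : List Net} {g : ℕ → G}
    (h : ∀ m, Acts n pt (nth Net.nil W m) (g m)) {R N : Net} (hR : R.OK n) (hN : N.OK n') (hn : n' ≤ n)
    (hk : n ≤ 2 ^ k) {l : List ℕ} (hc : ∀ b < k, subOK n n' W R N l b = true) :
    Acts n' (fun i => pt (R.fn i)) N (l.map g).prod := by
  have key : ∀ (l : List ℕ) (i : ℕ), i < n → ∃ j < n, (l.map g).prod • pt j = pt i ∧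
      ∀ x, (appL W l x).testBit i = x.testBit j := by
    intro l
    induction l with
    | nil => exact fun i hi => ⟨i, hi, one_smul _ _, fun _ => rfl⟩
    | cons m t ih =>
      intro i hi
      obtain ⟨j, hj, e1, e2⟩ := ih _ (Net.fn_lt (h m).1 hi)
      refine ⟨j, hj, by rw [List.map_cons, List.prod_cons, mul_smul, e1, (h m).2 i hi], fun x => ?_⟩
      have : appL W (m :: t) x = stepH W m (appL W t x) := force_eq _ _
      rw [this, stepH_eq, stepN, Net.testBit_app (h m).1, e2]
  refine ⟨hN, fun i hi => ?_⟩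
  obtain ⟨j, hj, e1, e2⟩ := key l _ (Net.fn_lt hR (hi.trans_le hn))
  have h1 := Net.fn_lt (Net.OK_rev hR) hj
  have h2 := Net.fn_lt hN hi
  have h3 : R.rev.fn j = N.fn i := Nat.eq_of_testBit_eq fun b => by
    by_cases hb : b < k
    · have h4 := congrArg (·.testBit i) (Nat.eq_of_beq_eq_true (hc b hb))
      simpa only [testBit_lo, Net.testBit_app hR, e2, Net.testBit_app (Net.OK_rev hR), Net.testBit_app hN,
        testBit_col, h1, h2, hi, decide_true, Bool.true_and, Bool.and_true] using h4
    · have h4 : 2 ^ k ≤ 2 ^ b := Nat.pow_le_pow_right (by norm_num) (by omega)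
      rw [Nat.testBit_lt_two_pow (by omega), Nat.testBit_lt_two_pow (by omega)]
  change _ • pt (R.fn (N.fn i)) = pt (R.fn i)
  rw [← h3, Net.fn_fn_rev hR, e1]

theorem pBound_of_inj {G K : Type} [Group G] [Finite G] [Group K] (φ : K →* G) (hφ : Function.Injective φ)
    (hK : Cfsg.HasCyclicSchurMultiplier K 1) {p : ℕ} (hp : p.Prime) (h : ¬ p ∣ φ.range.index) : PBound G p [] :=
  PBound.nil fun _ _ _ _ hσ => (Schur.IsCentralExt.mk hσ.1 hσ.2.1).not_dvd_card_stemKer hp _ h (by
    rw [Schur.stemKer_eq_bot_of_trivial (Schur.mult_congr_left hK (MonoidHom.ofInjective hφ))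
      ((Schur.IsCentralExt.mk hσ.1 hσ.2.1).restrict _), Subgroup.card_bot]
    exact hp.not_dvd_one)

end CfsgLib.MultC.F3
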